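import Cfsg.Agent.LocalP.Basic
import Mathlib.GroupTheory.Nilpotent
import Mathlib.Algebra.Group.Subgroup.Finite

/-!
An automorphism-equivariant radical closure of a `p`-subgroup of a finite group.
-/

set_option autoImplicit false

open scoped Pointwise

namespace CfsgLib.ReeInvolCent

variable {H : Type*} [Group H]

theorem map_eq_of_le [Finite H] {W : Subgroup H} {a : H ≃* H}
    (h : W.map a.toMonoidHom ≤ W) : W.map a.toMonoidHom = W :=
  Subgroup.eq_of_le_of_card_ge h (le_of_eq (Nat.card_congr (W.equivMapOfInjective a.toMonoidHom a.injective).toEquiv))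

theorem map_conj_eq {V : Subgroup H} {x : H} (hx : x ∈ Subgroup.normalizer (V : Set H)) :
    V.map (MulAut.conj x).toMonoidHom = V := by
  ext y
  rw [Subgroup.mem_map_equiv, MulAut.conj_symm_apply]
  have := Subgroup.mem_normalizer_iff.mp (inv_mem hx) y
  rw [inv_inv] at this
  exact this.symm

theorem mem_normalizer_of_map {V : Subgroup H} {x : H}
    (h : V.map (MulAut.conj x).toMonoidHom = V) : x ∈ Subgroup.normalizer (V : Set H) := by
  refine Subgroup.mem_normalizer_iff.mpr fun y => ⟨fun hy => ?_, fun hy => ?_⟩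
  · rw [← h]; exact ⟨y, hy, MulAut.conj_apply x y⟩
  · rw [← h, Subgroup.mem_map_equiv, MulAut.conj_symm_apply] at hy
    simpa [mul_assoc] using hy

theorem normalizer_map_eq (V : Subgroup H) (a : H ≃* H) :
    (Subgroup.normalizer (V : Set H)).map a.toMonoidHom =
      Subgroup.normalizer (V.map a.toMonoidHom : Set H) :=
  Subgroup.map_equiv_normalizer_eq V a

/-- The largest `p`-subgroup normalized by the normalizer of `V` inside that normalizer. -/
noncomputable def radOf (p : ℕ) (V : Subgroup H) : Subgroup H :=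
  sSup {X : Subgroup H | IsPGroup p X ∧ X ≤ Subgroup.normalizer (V : Set H) ∧
    Subgroup.normalizer (V : Set H) ≤ Subgroup.normalizer (X : Set H)}

theorem radOf_le_core [Finite H] (p : ℕ) [Fact p.Prime] (V : Subgroup H) :
    radOf p V ≤ (Cfsg.pCore p ↥(Subgroup.normalizer (V : Set H))).map
      (Subgroup.normalizer (V : Set H)).subtype := by
  refine sSup_le ?_
  rintro X ⟨hX, hle, hn⟩
  have h1 : X.subgroupOf (Subgroup.normalizer (V : Set H)) ≤ Cfsg.pCore p _ :=
    CfsgLib.LocalP.le_pCore ((Subgroup.normal_subgroupOf_iff_le_normalizer hle).mpr hn)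
      (hX.comap_of_injective _ (Subgroup.subtype_injective _))
  intro x hx
  exact ⟨⟨x, hle hx⟩, h1 hx, rfl⟩

theorem isPGroup_radOf [Finite H] (p : ℕ) [Fact p.Prime] (V : Subgroup H) :
    IsPGroup p (radOf p V) :=
  (CfsgLib.LocalP.isPGroup_pCore.map _).to_le (radOf_le_core p V)

theorem radOf_map [Finite H] (p : ℕ) {V : Subgroup H} {a : H ≃* H}
    (ha : V.map a.toMonoidHom = V) : (radOf p V).map a.toMonoidHom = radOf p V := by
  refine map_eq_of_le ?_
  rw [radOf, Subgroup.map_le_iff_le_comap]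
  refine sSup_le ?_
  rintro X ⟨hX, hle, hn⟩
  rw [← Subgroup.map_le_iff_le_comap]
  refine le_sSup ⟨hX.map _, ?_, ?_⟩
  · rw [← ha, ← normalizer_map_eq]
    exact Subgroup.map_mono hle
  · rw [← ha, ← normalizer_map_eq, ← normalizer_map_eq]
    exact Subgroup.map_mono hn

theorem normalizer_le_radOf [Finite H] (p : ℕ) (V : Subgroup H) :
    Subgroup.normalizer (V : Set H) ≤ Subgroup.normalizer (radOf p V : Set H) :=
  fun _ hx => mem_normalizer_of_map (radOf_map p (map_conj_eq hx))

/-- The closure: a `p`-overgroup, equivariant, absorbing the normal `p`-subgroups of its normalizer. -/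
theorem exists_closure [Finite H] (p : ℕ) [Fact p.Prime] (U : Subgroup H) (hU : IsPGroup p U) :
    ∃ V : Subgroup H, U ≤ V ∧ IsPGroup p V ∧
      Subgroup.normalizer (U : Set H) ≤ Subgroup.normalizer (V : Set H) ∧
      (∀ a : H ≃* H, U.map a.toMonoidHom = U → V.map a.toMonoidHom = V) ∧
      ∀ X : Subgroup H, IsPGroup p X → X ≤ Subgroup.normalizer (V : Set H) →
        Subgroup.normalizer (V : Set H) ≤ Subgroup.normalizer (X : Set H) → X ≤ V := by
  obtain ⟨V, ⟨h1, h2, h3, h4⟩, hmax⟩ := Set.Finite.exists_maximal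
    (s := {V : Subgroup H | U ≤ V ∧ IsPGroup p V ∧
      Subgroup.normalizer (U : Set H) ≤ Subgroup.normalizer (V : Set H) ∧
      ∀ a : H ≃* H, U.map a.toMonoidHom = U → V.map a.toMonoidHom = V})
    (Set.toFinite _) ⟨U, le_rfl, hU, le_rfl, fun _ h => h⟩
  have hVR : V ≤ radOf p V := le_sSup ⟨h2, Subgroup.le_normalizer, le_rfl⟩
  have heq : radOf p V ≤ V := @hmax (radOf p V)
    ⟨h1.trans hVR, isPGroup_radOf p V, h3.trans (normalizer_le_radOf p V),
      fun a ha => radOf_map p (h4 a ha)⟩ hVR
  exact ⟨V, h1, h2, h3, h4, fun X hX hle hn =>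
    (show X ≤ radOf p V from le_sSup ⟨hX, hle, hn⟩).trans heq⟩

/-- If the closure lies in a `p`-subgroup normalized by its normalizer, it equals it. -/
theorem closure_eq [Finite H] {p : ℕ} [Fact p.Prime] {V Y : Subgroup H}
    (hmax : ∀ X : Subgroup H, IsPGroup p X → X ≤ Subgroup.normalizer (V : Set H) →
        Subgroup.normalizer (V : Set H) ≤ Subgroup.normalizer (X : Set H) → X ≤ V)
    (hY : IsPGroup p Y) (hVY : V ≤ Y)
    (hn : Subgroup.normalizer (V : Set H) ≤ Subgroup.normalizer (Y : Set H)) : V = Y := by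
  have hX : Subgroup.normalizer (V : Set H) ⊓ Y ≤ V := by
    refine hmax _ (hY.to_le inf_le_right) inf_le_left fun x hx => mem_normalizer_of_map ?_
    rw [Subgroup.map_inf _ _ _ (MulAut.conj x).injective, normalizer_map_eq, map_conj_eq hx,
      map_conj_eq (hn hx)]
  by_contra hne
  have := hY.isNilpotent
  have hlt : V.subgroupOf Y < ⊤ := lt_top_iff_ne_top.mpr fun h =>
    hne (le_antisymm hVY (Subgroup.subgroupOf_eq_top.mp h))
  obtain ⟨y, hy, hyV⟩ := SetLike.exists_of_lt (Group.normalizerCondition_of_isNilpotent _ hlt)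
  refine hyV (hX ⟨Subgroup.mem_normalizer_iff.mpr fun z => ?_, y.2⟩)
  constructor
  · intro hz
    exact (Subgroup.mem_normalizer_iff.mp hy ⟨z, hVY hz⟩).mp hz
  · intro hz
    have hzY : z ∈ Y := by
      have h1 := mul_mem (mul_mem (inv_mem y.2) (hVY hz)) y.2
      simpa [mul_assoc] using h1
    exact (Subgroup.mem_normalizer_iff.mp hy ⟨z, hzY⟩).mpr hz

end CfsgLib.ReeInvolCent
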