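import Cfsg.Agent.TwistedLie.F4Tw
import Cfsg.Agent.Chevalley.Support
import Cfsg.Agent.Chevalley.Order
import Cfsg.Agent.Chevalley.Coxeter
import Cfsg.Agent.Chevalley.ParabolicCentralizer

/-!
Orders of the parabolic subgroups of `F₄` attached to the diagram-symmetric sets of nodes.
-/

set_option autoImplicit false

namespace CfsgLib.ReeInvolCent

open Cfsg.Lie CfsgLib.Chevalley CfsgLib.TwistedLie CfsgLib.TwistedLie.F4

local notation "S" => sysF4

theorem support : Sys.SupportEq S := supportEq_of_chk checkedF4 chkSupp_F4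

/-- The four largest symmetric node sets, as lists. -/
def Js : Fin 4 → List ℕ := ![[0, 3], [1, 2], [0, 2], [1, 3]]

/-- The elements of the corresponding Weyl groups, as words. -/
def Ws : Fin 4 → List (List (Fin 4)) :=
  ![[[], [0], [3], [0, 3]], [[], [1], [2], [1, 2], [2, 1], [1, 2, 1], [2, 1, 2], [1, 2, 1, 2]],
    [[], [0], [2], [0, 2]], [[], [1], [3], [1, 3]]]

/-- The words, typed over the nodes of the datum. -/
def Wl (k : Fin 4) : List (List (Fin chevF4.rank)) := Ws k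

/-- The action of a word on the roots. -/
def act (L : List (Fin chevF4.rank)) (s : ℕ) : ℕ := (L.map Fin.val).foldr chevF4.reflectRoot s

theorem Ws_mem : ∀ k : Fin 4, ∀ R ∈ Wl k, ∀ a ∈ R, (a : ℕ) ∈ Js k := by decide +kernel

theorem Ws_nil : ∀ k : Fin 4, [] ∈ Wl k := by decide +kernel

theorem Js_lt : ∀ k : Fin 4, ∀ i ∈ Js k, i < chevF4.rank := by decide +kernel

theorem Ws_closed : ∀ k : Fin 4, ∀ i : Fin chevF4.rank, (i : ℕ) ∈ Js k → ∀ R ∈ Wl k, ∃ R' ∈ Wl k,
    ∀ s < 48, chevF4.reflectRoot i (act R s) = act R' s := by decide +kernel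

theorem Ws_nodup : ∀ k : Fin 4, ((Wl k).map fun L => (List.range 48).map (act L)).Nodup := by
  decide +kernel

theorem Ws_len : ∀ k : Fin 4, ((Wl k).map fun L => (Finset.univ.filter fun s : Fin chevF4.nroots =>
    24 ≤ (s : ℕ) ∧ act L (s : ℕ) < 24).card) =
      ![[0, 1, 1, 2], [0, 1, 1, 2, 2, 3, 3, 4], [0, 1, 1, 2], [0, 1, 1, 2]] k := by
  decide +kernel

theorem wperm_act (L : List (Fin chevF4.rank)) (s : Fin chevF4.nroots) :
    (Sys.wperm S L s : ℕ) = act L s :=
  Sys.wperm_val S L s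

theorem inv_card (L : List (Fin chevF4.rank)) : (invSet (Sys.wperm S L)).card =
    (Finset.univ.filter fun s : Fin chevF4.nroots => 24 ≤ (s : ℕ) ∧ act L (s : ℕ) < 24).card := by
  congr 1
  ext s
  simp only [mem_invSet, Finset.mem_filter, Finset.mem_univ, true_and, wperm_act]
  rfl

open Classical in
theorem wSet_eq (k : Fin 4) : Sys.wSet S (Js k) = ((Wl k).map (Sys.wperm S)).toFinset := by
  ext σ
  rw [Sys.mem_wSet, List.mem_toFinset, List.mem_map]
  constructor
  · rintro ⟨L, hL, rfl⟩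
    induction L with
    | nil => exact ⟨[], Ws_nil k, rfl⟩
    | cons i L ih =>
      rw [List.forall_mem_cons] at hL
      obtain ⟨R, hR, e⟩ := ih hL.2
      obtain ⟨R', hR', h⟩ := Ws_closed k i hL.1 R hR
      refine ⟨R', hR', Equiv.ext fun s => Fin.ext ?_⟩
      rw [Sys.wperm_cons, Equiv.Perm.mul_apply, Sys.srefl_val, ← e, wperm_act, wperm_act]
      exact (h s s.isLt).symm
  · rintro ⟨R, hR, rfl⟩
    exact ⟨R, Ws_mem k R hR, rfl⟩

/-- The value of the length generating function. -/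
def lenVal (k : Fin 4) (q : ℕ) : ℕ := (1 + q) ^ 2 * if k = 1 then 1 + q ^ 2 else 1

theorem lenSum_eq (k : Fin 4) (q : ℕ) : Sys.lenSum S (Js k) (q : ℤ) = (lenVal k q : ℤ) := by
  classical
  have hnd : ((Wl k).map (Sys.wperm S)).Nodup := by
    refine List.Nodup.of_map (fun σ : Equiv.Perm (Fin chevF4.nroots) =>
      (List.range 48).map fun s => if h : s < chevF4.nroots then (σ ⟨s, h⟩ : ℕ) else 0) ?_
    rw [List.map_map]
    convert Ws_nodup k using 1
    refine List.map_congr_left fun L _ => List.map_congr_left fun s hs => ?_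
    rw [dif_pos (show s < chevF4.nroots from List.mem_range.mp hs), wperm_act]
  rw [Sys.lenSum, wSet_eq, List.sum_toFinset _ hnd, List.map_map]
  have h : (Wl k).map ((fun σ => (q : ℤ) ^ (invSet σ).card) ∘ Sys.wperm S) =
      ((Wl k).map fun L => (Finset.univ.filter fun s : Fin chevF4.nroots =>
        24 ≤ (s : ℕ) ∧ act L (s : ℕ) < 24).card).map fun n => (q : ℤ) ^ n := by
    rw [List.map_map]
    exact List.map_congr_left fun L _ => by simp only [Function.comp_apply, inv_card]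
  rw [h, Ws_len]
  fin_cases k <;> simp [lenVal] <;> ring

variable {K : Type*} [Field K]

theorem parabolic_cell {J : List ℕ} (hJ : ∀ a ∈ J, a < 4) {g : GL chevF4.Idx K}
    (hg : g ∈ chevF4.parabolicSubgroup K {i | i ∈ J}) : Cell K J g := by
  let M : Subgroup (GL chevF4.Idx K) :=
    { carrier := {g | ∀ y, Cell K J y → Cell K J (g * y) ∧ Cell K J (g⁻¹ * y)}
      one_mem' := fun y hy => by simp [hy]
      mul_mem' := fun {a b} ha hb y hy =>
        ⟨by rw [mul_assoc]; exact (ha _ (hb y hy).1).1,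
          by rw [mul_inv_rev, mul_assoc]; exact (hb _ (ha y hy).2).2⟩
      inv_mem' := fun {a} ha y hy => ⟨(ha y hy).2, by rw [inv_inv]; exact (ha y hy).1⟩ }
  have hle : chevF4.parabolicSubgroup K {i | i ∈ J} ≤ M := by
    refine sup_le (fun b hb y hy => ⟨cell_borel hb hy, cell_borel (inv_mem hb) hy⟩)
      ((Subgroup.closure_le _).mpr ?_)
    rintro g ⟨j, hj, -, hg⟩ y hy
    have e : g = nL S K [j] := by
      rw [nL_cons]
      exact (Units.ext (hg.trans (Sys.nG_val S K _ _).symm)).trans (by simp [nL])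
    rw [e]
    exact cell_nL hJ [j] (by simpa using hj) y hy
  have h0 : Cell K J (1 : GL chevF4.Idx K) :=
    ⟨1, one_mem _, [], by simp, 1, one_mem _, by simp [Sys.wN]⟩
  have := (hle hg 1 h0).1
  rwa [mul_one] at this

theorem wN_mem_parabolic {J : Set ℕ} : ∀ L : List (Fin chevF4.rank), (∀ i ∈ L, (i : ℕ) ∈ J) →
    (Sys.wN S K L : GL chevF4.Idx K) ∈ chevF4.parabolicSubgroup K J := by
  intro L
  induction L with
  | nil => intro _; simp [Sys.wN]
  | cons i L ih =>
    intro h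
    rw [List.forall_mem_cons] at h
    rw [Sys.wN_cons, Subgroup.coe_mul]
    exact mul_mem (Sys.nG_mem_parabolic S K h.1 i.isLt) (ih h.2)

theorem card_parabolic [Fintype K] (k : Fin 4) :
    Nat.card ↥(chevF4.parabolicSubgroup K {i | i ∈ Js k}) =
      Fintype.card K ^ 24 * Nat.card ↥(chevF4.diagonalSubgroup K) *
        lenVal k (Fintype.card K) := by
  classical
  set W := Sys.wSet S (Js k)
  have hB : chevF4.borelSubgroup K ≤ chevF4.parabolicSubgroup K {i | i ∈ Js k} := le_sup_left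
  have hrep : ∀ σ : W, ∃ n : ↥(chevF4.monomialSubgroup K), Sys.perm S K n = σ.1 ∧
      (n : GL chevF4.Idx K) ∈ chevF4.parabolicSubgroup K {i | i ∈ Js k} := by
    intro σ
    obtain ⟨L, hL, e⟩ := (Sys.mem_wSet S).mp σ.2
    exact ⟨Sys.wN S K L, by rw [Sys.perm_wN, e], wN_mem_parabolic L hL⟩
  choose rep hrep hrepP using hrep
  let f : (Σ σ : W, ↥(chevF4.borelSubgroup K) × ↥(uSub chevF4 K (Sys.flipSet S K (rep σ)))) →
      ↥(chevF4.parabolicSubgroup K {i | i ∈ Js k}) := fun x =>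
    ⟨x.2.1 * (rep x.1 : GL chevF4.Idx K) * x.2.2, mul_mem (mul_mem (hB x.2.1.2) (hrepP x.1))
      (hB (Subgroup.mem_sup_left (uSub_le_posUnipotent K _ x.2.2.2)))⟩
  have huV : ∀ (n : ↥(chevF4.monomialSubgroup K)) (u : GL chevF4.Idx K),
      u ∈ uSub chevF4 K (Sys.flipSet S K n) →
        (n : GL chevF4.Idx K) * u * (n : GL chevF4.Idx K)⁻¹ ∈ chevF4.negUnipotent K := by
    intro n u hu
    refine closure_conj_mem ?_ hu
    rintro x ⟨r, t, ⟨⟨hr, hr1⟩, -⟩, hx⟩
    obtain ⟨c, -, hct⟩ := Sys.conj_root S K n ⟨r, hr⟩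
    rw [Sys.eq_xG S K hx, show Sys.xG S K r t = Sys.xG S K (⟨r, hr⟩ : Fin chevF4.nroots) t from rfl,
      (hct t).1]
    exact Sys.xG_mem_negUnipotent S K hr1 _
  have hf : Function.Bijective f := by
    refine ⟨?_, ?_⟩
    · rintro ⟨σ, ⟨b, hb⟩, ⟨u, hu⟩⟩ ⟨τ, ⟨b', hb'⟩, ⟨u', hu'⟩⟩ e
      have e' : b * (rep σ : GL chevF4.Idx K) * u = b' * (rep τ : GL chevF4.Idx K) * u' :=
        congrArg Subtype.val e
      have hH := Sys.bruhat_unique S K hb
        (Subgroup.mem_sup_left (uSub_le_posUnipotent K _ hu)) hb'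
        (Subgroup.mem_sup_left (uSub_le_posUnipotent K _ hu')) (rep σ).2 (rep τ).2 e'
      have hperm : Sys.perm S K (rep σ) = Sys.perm S K (rep τ) := (Sys.perm_eq_iff S K).mpr hH
      rw [hrep, hrep] at hperm
      obtain rfl : σ = τ := Subtype.ext hperm
      obtain ⟨rfl, rfl⟩ := Sys.normal_form_unique S K hb hb' (huV _ u hu) (huV _ u' hu') e'
      rfl
    · rintro ⟨g, hg⟩
      obtain ⟨b₀, hb₀, L, hL, c₀, hc₀, e₀⟩ := parabolic_cell (Js_lt k) hg
      obtain ⟨b, hb, n, u, hu, e⟩ :=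
        Sys.normal_form_exists S K (Sys.parabolic_le_group S K support _ hg)
      have hperm : Sys.perm S K n = Sys.wperm S L := by
        rw [← Sys.perm_wN S K L]
        exact (Sys.perm_eq_iff S K).mpr (Sys.bruhat_unique S K hb
          (Subgroup.mem_sup_left (uSub_le_posUnipotent K _ hu)) hb₀ hc₀ n.2
          (Sys.wN S K L).2 (e.symm.trans e₀))
      let σ : W := ⟨Sys.perm S K n, (Sys.mem_wSet S).mpr ⟨L, hL, hperm⟩⟩
      have hset : Sys.flipSet S K (rep σ) = Sys.flipSet S K n := by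
        simp only [Sys.flipSet, hrep]
        rfl
      have hk : n * (rep σ)⁻¹ ∈ hSub chevF4 K := by
        rw [← Sys.ker_perm S K, MonoidHom.mem_ker, map_mul, map_inv, hrep, mul_inv_cancel]
      rw [hSub, Subgroup.mem_subgroupOf] at hk
      refine ⟨⟨σ, ⟨b * ((n * (rep σ)⁻¹ : ↥(chevF4.monomialSubgroup K)) : GL chevF4.Idx K),
        mul_mem hb (Subgroup.mem_sup_right hk)⟩, ⟨u, hset.symm ▸ hu⟩⟩, Subtype.ext ?_⟩
      simp only [f, Subgroup.coe_mul, Subgroup.coe_inv, e]
      group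
  have hcard : (Nat.card ↥(chevF4.parabolicSubgroup K {i | i ∈ Js k}) : ℤ) =
      (Fintype.card K : ℤ) ^ 24 * Nat.card ↥(chevF4.diagonalSubgroup K) *
        Sys.lenSum S (Js k) (Fintype.card K) := by
    rw [← Nat.card_congr (Equiv.ofBijective f hf), Nat.card_sigma]
    simp only [Nat.card_prod, Sys.natCard_borel S K]
    rw [← Finset.mul_sum]
    push_cast
    congr 1
    rw [Sys.lenSum]
    refine Eq.trans ?_ (Finset.sum_coe_sort W fun σ => (Fintype.card K : ℤ) ^ (invSet σ).card)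
    refine Finset.sum_congr rfl fun σ _ => ?_
    rw [Sys.natCard_uSub S K (Sys.closed_flipSet S K _)]
    push_cast
    congr 1
    refine (Finset.card_bij (fun (s : Fin chevF4.nroots) _ => (s : ℕ)) (fun s hs => ?_)
      (fun s _ t _ e => Fin.ext e) fun r hr => ?_).symm
    · rw [mem_invSet] at hs
      simp only [Finset.mem_filter, Finset.mem_Ico]
      exact ⟨⟨hs.1, s.isLt⟩, s.isLt, by simpa [hrep] using hs.2⟩
    · simp only [Finset.mem_filter, Finset.mem_Ico] at hr
      obtain ⟨h1, hlt, h2⟩ := hr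
      exact ⟨⟨r, hlt⟩, mem_invSet.mpr ⟨h1.1, by simpa [hrep] using h2⟩, rfl⟩
  rw [lenSum_eq] at hcard
  exact_mod_cast hcard

theorem prime_dvd_parabolic [Fintype K] {J : Set ℕ} {k : Fin 4}
    (hJ : ∀ i < chevF4.rank, i ∈ J → i ∈ Js k) {r : ℕ} (hr : r.Prime)
    (h : r ∣ Nat.card ↥(chevF4.parabolicSubgroup K J)) :
    r ∣ Fintype.card K * (Fintype.card K ^ 4 - 1) := by
  set q := Fintype.card K with hq
  have hle : chevF4.parabolicSubgroup K J ≤ chevF4.parabolicSubgroup K {i | i ∈ Js k} :=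
    sup_le le_sup_left ((Subgroup.closure_le _).mpr fun g ⟨j, hj, hl, hg⟩ =>
      Subgroup.mem_sup_right (Subgroup.subset_closure ⟨j, hJ j hl hj, hl, hg⟩))
  have h1 := h.trans (Subgroup.card_dvd_of_le hle)
  rw [card_parabolic k] at h1
  have hq1 : 1 < q := Fintype.one_lt_card
  have hdiag : Nat.card ↥(chevF4.diagonalSubgroup K) ∣ (q - 1) ^ 4 := by
    rw [Sys.diagonal_eq S]
    let ext4 : (Fin 4 → Kˣ) →* (ℕ → Kˣ) :=
      { toFun := fun c j => if h : j < 4 then c ⟨j, h⟩ else 1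
        map_one' := by funext j; by_cases h : j < 4 <;> simp [h]
        map_mul' := fun a b => by funext j; by_cases h : j < 4 <;> simp [h] }
    have e : (tor chevF4 K).range = ((tor chevF4 K).comp ext4).range := by
      refine le_antisymm ?_ ?_
      · rintro _ ⟨c, rfl⟩
        exact ⟨fun i => c i, tor_congr fun j hj => by simp [ext4, hj]⟩
      · rintro _ ⟨c, rfl⟩
        exact ⟨ext4 c, rfl⟩
    rw [e]
    refine (Subgroup.card_range_dvd _).trans (dvd_of_eq ?_)
    rw [Nat.card_pi, Finset.prod_const, Finset.card_univ, Fintype.card_fin, Nat.card_units,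
      Nat.card_eq_fintype_card, hq]
  have hlv : lenVal k q ∣ (1 + q) ^ 2 * (1 + q ^ 2) := by
    rw [lenVal]; split_ifs <;> simp
  have h4 : q ^ 4 - 1 = (q - 1) * (q + 1) * (q ^ 2 + 1) := by
    have e : (q ^ 2 + 1) * (q ^ 2 - 1) = q ^ 4 - 1 := by
      rw [← Nat.sq_sub_sq (q ^ 2) 1, one_pow, ← pow_mul]
    rw [← e, mul_comm (q ^ 2 + 1)]
    congr 1
    have := Nat.sq_sub_sq q 1
    rw [one_pow] at this
    rw [this, mul_comm]
  rw [h4]
  rcases hr.dvd_mul.mp h1 with h2 | h2
  · rcases hr.dvd_mul.mp h2 with h3 | h3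
    · exact (hr.dvd_of_dvd_pow h3).trans (dvd_mul_right _ _)
    · exact (hr.dvd_of_dvd_pow (h3.trans hdiag)).trans
        (((dvd_mul_right _ _).trans (dvd_mul_right _ _)).trans (dvd_mul_left _ _))
  · rcases hr.dvd_mul.mp (h2.trans hlv) with h3 | h3
    · have h5 := hr.dvd_of_dvd_pow h3
      rw [add_comm] at h5
      exact h5.trans (((dvd_mul_left _ _).trans (dvd_mul_right _ _)).trans (dvd_mul_left _ _))
    · rw [add_comm] at h3
      exact h3.trans ((dvd_mul_left _ _).trans (dvd_mul_left _ _))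

end CfsgLib.ReeInvolCent
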