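import Cfsg.Agent.ReeInvolCent.Closure
import Cfsg.Agent.ReeInvolCent.Parabolic
import Cfsg.Agent.TwistedLie.F4Tor
import Cfsg.Agent.Chevalley.BorelTits
import Cfsg.Agent.ChevField.Map

/-!
A subgroup centralising an involution fixed by the twist lies in a parabolic subgroup of `F₄`
attached to a symmetric set of nodes.
-/

set_option autoImplicit false

namespace CfsgLib.ReeInvolCent

open Cfsg.Lie CfsgLib.Chevalley CfsgLib.TwistedLie CfsgLib.TwistedLie.F4

local notation "S" => sysF4

/-- Membership of a root in the subsystem of a node set given by a bit list. -/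
def inB (m : List Bool) (r : ℕ) : Bool :=
  (List.range 4).all fun i => m.getD i false || decide ((chevF4.coroot.getD r #[]).getD i 0 = 0)

/-- The number of positive roots outside the subsystem of given length type. -/
def cnt (m : List Bool) (e : ℕ) : ℕ :=
  ((List.range 48).filter fun r => decide (24 ≤ r) && !inB m r && decide (ee r = e)).length

theorem mask_cases : ∀ a b c d : Bool, cnt [a, b, c, d] 2 ≤ cnt [d, c, b, a] 2 →
    cnt [a, b, c, d] 1 ≤ cnt [d, c, b, a] 1 → (a && b && c && d) = true ∨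
      ∃ k : Fin 4, ∀ i < 4, [a, b, c, d].getD i false = true → i ∈ Js k := by decide +kernel

theorem mask_rr : ∀ a b c d : Bool, ∀ r < 48, 24 ≤ r → inB [a, b, c, d] r = false →
    inB [d, c, b, a] (rr r) = false ∧ 24 ≤ rr r := by decide +kernel

theorem ee_reflect : ∀ i < 4, ∀ s < 48, ee (chevF4.reflectRoot i s) = ee s := by decide +kernel

theorem ee_cases : ∀ r < 48, ee r = 1 ∨ ee r = 2 := by decide +kernel

open Classical in
/-- The bit list of a set of nodes. -/
noncomputable def mask (J : Set ℕ) : List Bool :=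
  [decide (0 ∈ J), decide (1 ∈ J), decide (2 ∈ J), decide (3 ∈ J)]

/-- The image of a set of nodes under the symmetry. -/
def revSet (J : Set ℕ) : Set ℕ := {i | i < 4 ∧ 3 - i ∈ J}

theorem mask_getD (J : Set ℕ) {i : ℕ} (hi : i < 4) : (mask J).getD i false = true ↔ i ∈ J := by
  interval_cases i <;> simp [mask]

theorem inRootSub_iff (J : Set ℕ) {r : ℕ} (hr : r < 48) :
    chevF4.InRootSub J r ↔ inB (mask J) r = true := by
  simp only [ChevalleyDatum.InRootSub, inB, List.all_eq_true, List.mem_range, Bool.or_eq_true,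
    decide_eq_true_eq]
  constructor
  · rintro ⟨-, h⟩ i hi
    by_cases hiJ : i ∈ J
    · exact Or.inl ((mask_getD J hi).mpr hiJ)
    · exact Or.inr (h i hi hiJ)
  · intro h
    exact ⟨hr, fun i hi hiJ => (h i hi).resolve_left fun e => hiJ ((mask_getD J hi).mp e)⟩

theorem mem_outSet_iff (J : Set ℕ) {r : ℕ} (hr : r < 48) :
    r ∈ outSet chevF4 J ↔ inB (mask J) r = false := by
  rw [← Bool.not_eq_true, ← inRootSub_iff J hr]
  rfl

theorem mask_rev (J : Set ℕ) : mask (revSet J) =
    [(mask J).getD 3 false, (mask J).getD 2 false, (mask J).getD 1 false, (mask J).getD 0 false] := by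
  classical
  have e : ∀ i < 4, decide (i ∈ revSet J) = decide (3 - i ∈ J) := fun i hi =>
    decide_eq_decide.mpr ⟨fun h => h.2, fun h => ⟨hi, h⟩⟩
  simp only [mask, e 0 (by norm_num), e 1 (by norm_num), e 2 (by norm_num), e 3 (by norm_num)]
  rfl

variable {K : Type*} [Field K]

theorem ee_perm (n : ↥(chevF4.monomialSubgroup K)) (r : Fin chevF4.nroots) :
    ee (Sys.perm S K n r : ℕ) = ee r := by
  obtain ⟨L, hL⟩ := Sys.exists_wperm S K n
  rw [hL]
  clear hL
  induction L with
  | nil => rfl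
  | cons i L ih =>
    rw [Sys.wperm_cons, Equiv.Perm.mul_apply, Sys.srefl_val]
    exact (ee_reflect i i.isLt _ (Fin.isLt _)).trans ih

/-- A node set whose radical is conjugate into the radical of its mirror image is small. -/
theorem small_of_conj {J : Set ℕ} (hproper : ∃ i, i < chevF4.rank ∧ i ∉ J) {h : GL chevF4.Idx K}
    (hh : h ∈ chevF4.group K) (hconj : ∀ u ∈ chevF4.unipotentRadical K J,
      h * u * h⁻¹ ∈ chevF4.unipotentRadical K (revSet J)) :
    ∃ k : Fin 4, ∀ i < chevF4.rank, i ∈ J → i ∈ Js k := by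
  classical
  obtain ⟨a, ha, n, hn, c, hc, rfl⟩ := Sys.exists_bruhat S K hh
  have hB : ∀ J' : Set ℕ, chevF4.borelSubgroup K ≤
      Subgroup.normalizer (chevF4.unipotentRadical K J' : Set (GL chevF4.Idx K)) := fun J' =>
    le_sup_left.trans (Sys.parabolic_le_normalizer S K support J')
  have hn' : ∀ u ∈ chevF4.unipotentRadical K J,
      n * u * n⁻¹ ∈ chevF4.unipotentRadical K (revSet J) := by
    intro u hu
    have h1 := hconj _ ((Subgroup.mem_normalizer_iff.mp (hB J (inv_mem hc)) u).mp hu)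
    have h2 := (Subgroup.mem_normalizer_iff.mp (hB (revSet J) (inv_mem ha)) _).mp h1
    simpa [mul_assoc] using h2
  set nn : ↥(chevF4.monomialSubgroup K) := ⟨n, hn⟩
  have himg : ∀ r : Fin chevF4.nroots, 24 ≤ (r : ℕ) → inB (mask J) r = false →
      24 ≤ (Sys.perm S K nn r : ℕ) ∧ inB (mask (revSet J)) (Sys.perm S K nn r : ℕ) = false ∧
        ee (Sys.perm S K nn r : ℕ) = ee r := by
    intro r hp hr
    obtain ⟨k, hk, hct⟩ := Sys.conj_root S K nn r
    have h1 : Sys.xG S K r 1 ∈ chevF4.unipotentRadical K J := by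
      rw [unipotentRadical_eq]
      exact Sys.xG_mem_uSub S K ((mem_outSet_iff J r.isLt).mpr hr) hp r.isLt 1
    have h2 := hn' _ h1
    rw [unipotentRadical_eq] at h2
    have h3 : Sys.xG S K (Sys.perm S K nn r : ℕ) (k * 1) ∈
        uSub chevF4 K (outSet chevF4 (revSet J)) := by
      rw [← (hct 1).1]; exact h2
    obtain ⟨h4, h5⟩ := Sys.xG_mem_uSub_iff S K (Sys.closed_outSet S support _) (Fin.isLt _)
      (by simpa using hk) h3
    exact ⟨h5, (mem_outSet_iff _ (Fin.isLt _)).mp h4, ee_perm nn r⟩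
  have hcnt : ∀ e : ℕ, cnt (mask J) e ≤ cnt (mask (revSet J)) e := by
    intro e
    rw [cnt, cnt, ← List.toFinset_card_of_nodup ((List.nodup_range).filter _),
      ← List.toFinset_card_of_nodup ((List.nodup_range).filter _)]
    refine Finset.card_le_card_of_injOn
      (fun r => if h : r < chevF4.nroots then (Sys.perm S K nn ⟨r, h⟩ : ℕ) else 0) ?_ ?_
    · intro r hr
      simp only [List.coe_toFinset, List.mem_filter, List.mem_range, Bool.and_eq_true,
        decide_eq_true_eq, Bool.not_eq_true', Set.mem_ofPred_eq] at hr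
      obtain ⟨hl, ⟨hp, hin⟩, he⟩ := hr
      have hl' : r < chevF4.nroots := hl
      obtain ⟨q1, q2, q3⟩ := himg ⟨r, hl'⟩ hp hin
      simp only [List.coe_toFinset, List.mem_filter, List.mem_range, Bool.and_eq_true,
        decide_eq_true_eq, Bool.not_eq_true', Set.mem_ofPred_eq, dif_pos hl']
      exact ⟨Fin.isLt _, ⟨q1, q2⟩, q3.trans he⟩
    · intro r hr s hs he
      simp only [List.coe_toFinset, List.mem_filter, List.mem_range, Set.mem_ofPred_eq] at hr hs
      simp only [dif_pos (show r < chevF4.nroots from hr.1), dif_pos (show s < chevF4.nroots from hs.1)] at he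
      exact congrArg Fin.val ((Sys.perm S K nn).injective (Fin.ext he))
  have h2 := hcnt 2
  have h1 := hcnt 1
  rw [mask_rev] at h1 h2
  rcases mask_cases _ _ _ _ h2 h1 with hall | ⟨k, hk⟩
  · exfalso
    obtain ⟨i, hi, hiJ⟩ := hproper
    simp only [Bool.and_eq_true, mask_getD J (show 0 < 4 by norm_num), mask_getD J (show 1 < 4 by norm_num),
      mask_getD J (show 2 < 4 by norm_num), mask_getD J (show 3 < 4 by norm_num),
      decide_eq_true_eq] at hall
    have hi4 : i < 4 := hi
    interval_cases i <;> tauto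
  · exact ⟨k, fun i hi hiJ => hk i hi ((mask_getD J hi).mpr hiJ)⟩

variable [Fintype K] {m : ℕ} (hK : Fintype.card K = 2 ^ (2 * m + 1))
include hK

theorem sigma_mem {g : GL chevF4.Idx K} (hg : g ∈ chevF4.group K) :
    sigma hK g ∈ chevF4.group K := by
  rw [sigma, dif_pos hg]
  exact CfsgLib.ChevField.gmap_mem S (phi hK) (alpha hK ⟨g, hg⟩).2

/-- The twist as an automorphism of the Chevalley group. -/
noncomputable def sigmaEquiv : ↥(chevF4.group K) ≃* ↥(chevF4.group K) :=
  MulEquiv.ofBijective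
    (MonoidHom.mk' (fun g => ⟨sigma hK g, sigma_mem hK g.2⟩)
      fun a b => Subtype.ext (sigma_mul hK a.2 b.2))
    (Finite.injective_iff_bijective.mp fun a b h => by
      have h1 : sigma hK a = sigma hK b := congrArg Subtype.val h
      simp only [sigma, dif_pos a.2, dif_pos b.2] at h1
      exact (alpha hK).injective (Subtype.ext (CfsgLib.ChevField.gmap_injective (phi hK) h1)))

theorem sigmaEquiv_val (g : ↥(chevF4.group K)) :
    (sigmaEquiv hK g : GL chevF4.Idx K) = sigma hK g := rfl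

theorem sigma_radical {J : Set ℕ} {u : GL chevF4.Idx K}
    (hu : u ∈ chevF4.unipotentRadical K J) :
    sigma hK u ∈ chevF4.unipotentRadical K (revSet J) := by
  rw [unipotentRadical_eq] at hu ⊢
  let M : Subgroup (GL chevF4.Idx K) :=
    { carrier := {g | g ∈ chevF4.group K ∧ sigma hK g ∈ uSub chevF4 K (outSet chevF4 (revSet J))}
      one_mem' := ⟨one_mem _, by rw [sigma_one hK]; exact one_mem _⟩
      mul_mem' := fun {a b} ha hb =>
        ⟨mul_mem ha.1 hb.1, by rw [sigma_mul hK ha.1 hb.1]; exact mul_mem ha.2 hb.2⟩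
      inv_mem' := fun {a} ha =>
        ⟨inv_mem ha.1, by rw [sigma_inv hK ha.1]; exact inv_mem ha.2⟩ }
  have hle : uSub chevF4 K (outSet chevF4 J) ≤ M := by
    refine Sys.uSub_le S K fun r hr h1 h2 t => ⟨Sys.xG_mem S K h2 t, ?_⟩
    rw [sigma_x hK h2]
    obtain ⟨h3, h4⟩ := mask_rr _ _ _ _ r h2 h1 ((mem_outSet_iff J h2).mp hr)
    refine Sys.xG_mem_uSub S K ((mem_outSet_iff _ (rr_lt r h2)).mpr ?_) h4 (rr_lt r h2) _
    rw [mask_rev]
    exact h3
  exact (hle hu).2

/-- An element centralising an involution fixed by the twist lies in the order of a small parabolic. -/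
theorem exists_parabolic {a : GL chevF4.Idx K} (ha : a ∈ fixG hK) (ha2 : orderOf a = 2)
    {b : GL chevF4.Idx K} (hb : b ∈ chevF4.group K) (hab : Commute a b) :
    ∃ (J : Set ℕ) (k : Fin 4), (∀ i < chevF4.rank, i ∈ J → i ∈ Js k) ∧
      orderOf b ∣ Nat.card ↥(chevF4.parabolicSubgroup K J) := by
  classical
  haveI := charTwo hK
  haveI : Fact (Nat.Prime 2) := ⟨Nat.prime_two⟩
  set a' : ↥(chevF4.group K) := ⟨a, ha.1⟩ with ha'
  have hoa : orderOf a' = 2 := by rw [← Subgroup.orderOf_coe]; exact ha2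
  set U : Subgroup ↥(chevF4.group K) := Subgroup.zpowers a' with hUdef
  have hU : IsPGroup 2 U := IsPGroup.of_card (n := 1) (by rw [hUdef, Nat.card_zpowers, hoa, pow_one])
  obtain ⟨V, hUV, hV, hN, hA, hmax⟩ := exists_closure 2 U hU
  have hσV : V.map (sigmaEquiv hK).toMonoidHom = V := hA _ (by
    rw [hUdef, MonoidHom.map_zpowers]
    congr 1
    exact Subtype.ext ha.2)
  have hVne : V.map (chevF4.group K).subtype ≠ ⊥ := by
    intro h
    have h1 : a ∈ V.map (chevF4.group K).subtype :=
      ⟨a', hUV (Subgroup.mem_zpowers a'), rfl⟩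
    rw [h, Subgroup.mem_bot] at h1
    rw [h1, orderOf_one] at ha2
    omega
  obtain ⟨g, hg, J, hJ, hNP, hVR⟩ := Sys.borel_tits S K support 2
    (U := V.map (chevF4.group K).subtype) (Subgroup.map_subtype_le V) (hV.map _) hVne
  set g' : ↥(chevF4.group K) := ⟨g, hg⟩ with hg'
  set Y : Subgroup ↥(chevF4.group K) := ((chevF4.unipotentRadical K J).subgroupOf
    (chevF4.group K)).map (MulAut.conj g').toMonoidHom with hYdef
  have hY : IsPGroup 2 Y := by
    refine IsPGroup.map ((CfsgLib.SteinbergChar.isPGroup_posUnipotent S K 2).to_le ?_) _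
    rw [unipotentRadical_eq]
    exact Subgroup.comap_mono (uSub_le_posUnipotent K _)
  have hrad : chevF4.unipotentRadical K J ≤ chevF4.group K := by
    rw [unipotentRadical_eq]
    exact (uSub_le_posUnipotent K _).trans (Sys.posUnipotent_le_group S K)
  have hmemY : ∀ u (hu : u ∈ chevF4.unipotentRadical K J),
      g' * ⟨u, hrad hu⟩ * g'⁻¹ ∈ Y := fun u hu => ⟨⟨u, hrad hu⟩, hu, MulAut.conj_apply _ _⟩
  have hVY : V ≤ Y := by
    intro x hx
    obtain ⟨u, hu, e⟩ := hVR ⟨x, hx, rfl⟩
    have e' : x = g' * ⟨u, hrad hu⟩ * g'⁻¹ := Subtype.ext (by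
      simpa [hg'] using e.symm)
    rw [e']
    exact hmemY u hu
  have hNV : ∀ x ∈ Subgroup.normalizer (V : Set ↥(chevF4.group K)),
      g'⁻¹ * x * g' ∈ (chevF4.parabolicSubgroup K J).subgroupOf (chevF4.group K) := by
    intro x hx
    obtain ⟨y, hy, e⟩ := hNP (x := (x : GL chevF4.Idx K)) ⟨by
      refine Subgroup.mem_normalizer_iff.mpr fun z => ⟨?_, ?_⟩
      · rintro ⟨w, hw, rfl⟩
        exact ⟨x * w * x⁻¹, (Subgroup.mem_normalizer_iff.mp hx w).mp hw, rfl⟩
      · rintro ⟨w, hw, e⟩
        refine ⟨x⁻¹ * w * x, ?_, ?_⟩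
        · have := (Subgroup.mem_normalizer_iff.mp (inv_mem hx) w).mp hw
          rwa [inv_inv] at this
        · simp only [map_mul, map_inv, Subgroup.coe_subtype] at e ⊢
          rw [e]
          group, x.2⟩
    rw [Subgroup.mem_subgroupOf]
    simp only [MulEquiv.coe_toMonoidHom, MulAut.conj_apply] at e
    simp only [Subgroup.coe_mul, Subgroup.coe_inv, hg', ← e]
    simpa [mul_assoc] using hy
  have hNY : Subgroup.normalizer (V : Set ↥(chevF4.group K)) ≤
      Subgroup.normalizer (Y : Set ↥(chevF4.group K)) := by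
    intro x hx
    rw [hYdef, ← normalizer_map_eq, Subgroup.mem_map_equiv, MulAut.conj_symm_apply]
    have h1 := Sys.parabolic_le_normalizer S K support J (hNV x hx)
    refine Subgroup.mem_normalizer_iff.mpr fun z => ?_
    rw [Subgroup.mem_subgroupOf, Subgroup.mem_subgroupOf]
    exact Subgroup.mem_normalizer_iff.mp h1 z
  obtain rfl := closure_eq hmax hY hVY hNY
  have hconj : ∀ u ∈ chevF4.unipotentRadical K J,
      (sigma hK g)⁻¹ * g * u * ((sigma hK g)⁻¹ * g)⁻¹ ∈
        chevF4.unipotentRadical K (revSet J) := by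
    intro u hu
    have h1 : g' * ⟨u, hrad hu⟩ * g'⁻¹ ∈ Y.map (sigmaEquiv hK).toMonoidHom := by
      rw [hσV]; exact hmemY u hu
    obtain ⟨w, ⟨v, hv, rfl⟩, e⟩ := h1
    have h2 := congrArg (fun z : ↥(chevF4.group K) => (z : GL chevF4.Idx K)) e
    simp only [MulEquiv.coe_toMonoidHom, MulAut.conj_apply, map_mul, map_inv, Subgroup.coe_mul,
      Subgroup.coe_inv, sigmaEquiv_val, hg'] at h2
    have h3 : (sigma hK g)⁻¹ * g * u * ((sigma hK g)⁻¹ * g)⁻¹ =
        sigma hK (v : GL chevF4.Idx K) := by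
      calc _ = (sigma hK g)⁻¹ * (g * u * g⁻¹) * sigma hK g := by group
        _ = _ := by rw [← h2]; group
    rw [h3]
    exact sigma_radical hK hv
  obtain ⟨k, hk⟩ := small_of_conj hJ (mul_mem (inv_mem (sigma_mem hK hg)) hg) hconj
  refine ⟨J, k, hk, ?_⟩
  set b' : ↥(chevF4.group K) := ⟨b, hb⟩ with hb'
  have hbN : b' ∈ Subgroup.normalizer (U : Set ↥(chevF4.group K)) := by
    refine mem_normalizer_of_map ?_
    rw [hUdef, MonoidHom.map_zpowers]
    congr 1
    rw [MulEquiv.coe_toMonoidHom, MulAut.conj_apply]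
    refine Subtype.ext ?_
    simp only [Subgroup.coe_mul, Subgroup.coe_inv, ha', hb']
    rw [← hab.eq, mul_inv_cancel_right]
  have h1 := hNV b' (hN hbN)
  have h2 := Subgroup.orderOf_dvd_natCard _ (Subgroup.mem_subgroupOf.mp h1)
  rwa [Subgroup.coe_mul, Subgroup.coe_mul, Subgroup.coe_inv,
    show (g' : GL chevF4.Idx K)⁻¹ * (b' : GL chevF4.Idx K) * g' =
      MulAut.conj (g' : GL chevF4.Idx K)⁻¹ b by simp [hb'],
    MulEquiv.orderOf_eq] at h2

/-- Primes of elements centralising an involution fixed by the twist. -/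
theorem prime_dvd {a : GL chevF4.Idx K} (ha : a ∈ fixG hK) (ha2 : orderOf a = 2)
    {b : GL chevF4.Idx K} (hb : b ∈ chevF4.group K) (hab : Commute a b) {r : ℕ} (hr : r.Prime)
    (hrb : r ∣ orderOf b) : r ∣ Fintype.card K * (Fintype.card K ^ 4 - 1) := by
  obtain ⟨J, k, hk, h⟩ := exists_parabolic hK ha ha2 hb hab
  exact prime_dvd_parabolic hk hr (hrb.trans h)

end CfsgLib.ReeInvolCent
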